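-- Generated: a labelled coset table for `U33E`.
import Cfsg.Agent.Lib.KnownSimple.U33ELab.ChecksA
import Cfsg.Agent.Lib.KnownSimple.U33ELab.ChecksV0
import Cfsg.Agent.Lib.KnownSimple.U33ELab.ChecksV1
import Cfsg.Agent.Lib.KnownSimple.U33ELab.ChecksV2
import Cfsg.Agent.Lib.KnownSimple.U33ELab.ChecksV3
import Cfsg.Agent.Lib.KnownSimple.LabTower
import Cfsg.Agent.Lib.KnownSimple.LabFinalA
import Cfsg.Agent.Lib.KnownSimple.LabPoly

set_option autoImplicit false
set_option maxRecDepth 100000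

universe u

namespace Cfsg.Agent.Lib.KnownSimple.U33ELab

open Cfsg.Agent.Lib.KnownSimple.Lab Subgroup 

def gwx : List ℕ := [1, 1, 0, 1, 1, 2, 3, 3, 3, 3]
def gwy : List ℕ := [0, 1, 0, 1, 2, 2, 3, 0, 1, 0, 3, 2, 3, 2]
def gw (a : ℕ) : List ℕ := [gwx, gwy].getD a []

def wordsL : List (List ℕ) := [wr0, wr1, wr2, wr3, wr4, wr5, wr6, wr7, wr8, rw0, rw1, rw2, rw3, rw4, rw5, rw6, rw7, rw8, rw9, rw10, rw11, rw12, rw13, rw14, rw15, rw16, rw17, rw18, rw19, rw20, pw0, pw1, pw2, pw3, pw4, pw5, pw6]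

def chk (w : List ℕ) : Bool := wordsL.elem w


theorem hgw1 : ∀ a < 2, ∀ b ∈ gw a, b < 2 * 2 := by
  intro a ha
  interval_cases a
  · exact (by decide +kernel : ∀ b ∈ gwx, b < 2 * 2)
  · exact (by decide +kernel : ∀ b ∈ gwy, b < 2 * 2)

theorem hgw3 : ∀ a < 2, balanced 2 (gw a) = true := by
  intro a ha
  interval_cases a <;> decide +kernel

theorem hT : ∀ a < D.k, ∀ i < D.n, D.T a i < D.n := by
  intro a ha i hi
  have ha' : a < 4 := ha
  have hi' : i < 28 := hi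
  show D.T a i < 28
  interval_cases a
  · exact Nat.le_of_ble_eq_true (hT0 i hi')
  · exact Nat.le_of_ble_eq_true (hT1 i hi')
  · exact Nat.le_of_ble_eq_true (hT2 i hi')
  · exact Nat.le_of_ble_eq_true (hT3 i hi')

theorem hRchk : allI (fun ρ => (Rget ρ).all (fun a => Nat.blt a 4)) 0 9 = true := by decide +kernel

theorem hR : ∀ ρ < D.r, ∀ a ∈ D.R ρ, a < D.k := by
  intro ρ hρ a ha
  have h1 := of_allI hRchk ρ (Nat.zero_le _) hρ
  exact Nat.le_of_ble_eq_true (List.all_eq_true.mp h1 a ha)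

theorem hR4 : ∀ ρ < D.r, ∀ a ∈ D.R ρ, a < 4 := hR

theorem hp : ∀ j, 0 < j → j < D.n → D.par j < j ∧ D.gn j < D.k ∧ D.T (D.gn j) (D.par j) = j := by
  intro j h0 hj
  have h := hTree j hj
  simp only [Bool.or_eq_true, Bool.and_eq_true, Nat.beq_eq, Nat.blt_eq] at h
  rcases h with h | ⟨⟨h1, h2⟩, h3⟩
  · omega
  · exact ⟨h1, h2, h3⟩

theorem hZ : ∀ ρ < D.r, D.Z ρ = true → ∃ a < 2, D.R ρ = [a, a + 2] ∨ D.R ρ = [a + 2, a] ∨
    D.R ρ = (a + 2) :: gw a := by
  intro ρ hρ h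
  have hρ' : ρ < 9 := hρ
  interval_cases ρ
  · exact ⟨0, by norm_num, Or.inr (Or.inl rfl)⟩
  · exact ⟨0, by norm_num, Or.inl rfl⟩
  · exact ⟨1, by norm_num, Or.inr (Or.inl rfl)⟩
  · exact ⟨1, by norm_num, Or.inl rfl⟩
  · exact absurd h (by decide +kernel)
  · exact absurd h (by decide +kernel)
  · exact absurd h (by decide +kernel)
  · exact ⟨0, by norm_num, Or.inr (Or.inr rfl)⟩
  · exact ⟨1, by norm_num, Or.inr (Or.inr rfl)⟩

theorem hPkchk : allI (fun t => (Nat.blt (D.P t).1 4 && Nat.blt (D.P t).2 28) ||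
    (Nat.ble 4 (D.P t).1 && Nat.blt ((D.P t).1 - 4) 9 && Nat.beq (D.P t).2 0)) 0 7 = true := by decide +kernel

theorem hPk : ∀ t < D.m, ((D.P t).1 < D.k ∧ (D.P t).2 < D.n) ∨
    (D.k ≤ (D.P t).1 ∧ (D.P t).1 - D.k < D.r ∧ (D.P t).2 = 0) := by
  intro t ht
  have := of_allI hPkchk t (Nat.zero_le _) ht
  simp only [Bool.or_eq_true, Bool.and_eq_true, Nat.beq_eq, Nat.blt_eq, Nat.ble_eq, and_assoc] at this
  exact this

theorem hPLchk : allI (fun t => vbeq (D.L (D.P t).1 (D.P t).2) (vunit 7 t)) 0 7 = true := by decide +kernel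

theorem hPL : ∀ t < D.m, vbeq (D.L (D.P t).1 (D.P t).2) (vunit D.m t) = true := fun t ht =>
  of_allI hPLchk t (Nat.zero_le _) ht

theorem hvar : ∀ a < D.k, ∀ i < D.n, Dat.varOK D a i = true := by
  intro a ha i hi
  have ha' : a < 4 := ha
  have hi' : i < 28 := hi
  interval_cases a
  · exact hV0 i hi'
  · exact hV1 i hi'
  · exact hV2 i hi'
  · exact hV3 i hi'

theorem hrvchk : allI (fun ρ => Dat.relOK D ρ) 0 9 = true := by decide +kernel

theorem hrv : ∀ ρ < D.r, Dat.relOK D ρ = true := fun ρ hρ => of_allI hrvchk ρ (Nat.zero_le _) hρ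

def rels : List (ℕ × ℕ) := [(7, 0), (8, 0), (2, 24), (5, 9), (6, 7), (8, 0), (2, 7), (6, 25), (6, 15), (6, 5)]

theorem hrelschk : rels.all (fun x => Dat.relClosed D x.1 x.2) = true := by decide +kernel

theorem hrels : ∀ x ∈ rels, Dat.relClosed D x.1 x.2 = true := fun x hx => List.all_eq_true.mp hrelschk x hx

def gv0 : List ℤ := [0, 0, 2, 0, 0, 2, (-3)]
def wN0 : List ℤ := [8, (-12), 10, 7, (-16), 0, 0, 0, (-5), (-1)]
def gv1 : List ℤ := [0, 0, 1, 0, 0, 1, (-2)]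
def wN1 : List ℤ := [16, 0, 6, 29, (-16), 0, 0, 0, (-8), (-4)]
def gvs : List (List ℤ) := [gv0, gv1]
def bL : List (List ℤ) := [[(-26), 12], [7, (-3)], [(-1), 0], [(-2), 0], [1, (-1)], [3, (-3)], [1, (-2)]]
def WL : List (List ℤ) := [[26, (-78), 56, 0, (-79), 0, 0, 0, (-20), 0], [(-7), 23, (-16), 0, 23, 0, 0, 0, 6, 0], [2, (-4), 3, 0, (-4), 0, 0, 0, (-1), 0], [3, (-8), 6, 0, (-8), 0, 0, 0, (-2), 0], [0, 4, (-2), 0, 4, 0, 0, 0, 1, 0], [(-2), 4, (-3), 0, 4, 0, 0, 0, 1, 0], [0, 0, 0, 0, 0, 0, 0, 0, 0, 0]]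

theorem hfinchk : allI (fun u => vbeq (vunit 7 u) (vadd (lin (bL.getD u []) gvs)
    (lin (WL.getD u []) (rels.map fun x => Dat.relRow D x.1 x.2)))) 0 7 = true := by decide +kernel

theorem hfin : ∀ u < D.m, vbeq (vunit D.m u) (vadd (lin (bL.getD u []) gvs)
    (lin (WL.getD u []) (rels.map fun x => Dat.relRow D x.1 x.2))) = true := fun u hu =>
  of_allI hfinchk u (Nat.zero_le _) hu

theorem hN0 : vbeq (vscale ((4 : ℕ) : ℤ) gv0) (lin wN0 (rels.map fun x => Dat.relRow D x.1 x.2)) = true := by decide +kernel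
theorem hN1 : vbeq (vscale ((8 : ℕ) : ℤ) gv1) (lin wN1 (rels.map fun x => Dat.relRow D x.1 x.2)) = true := by decide +kernel

    theorem hpc : pcWF pcL = true := by decide +kernel

    theorem hlet : ∀ p ∈ pcL, ∀ a ∈ p.u, a < 2 * 2 := by decide +kernel

    theorem hRelW : relWords 2 pcL = [rw0, rw1, rw2, rw3, rw4, rw5, rw6, rw7, rw8, rw9, rw10, rw11, rw12, rw13, rw14, rw15, rw16, rw17, rw18, rw19, rw20] := by decide +kernel

    theorem hprod : (pcL.map PC.o).prod = 216 := by decide +kernel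

    def peL : List (List ℕ) := [[0, 0, 1, 0, 0, 0], [1, 1, 0, 2, 0, 0], [0, 0, 1, 0, 2, 0], [0, 0, 0, 0, 0, 2], [1, 0, 0, 0, 0, 0], [1, 1, 0, 0, 2, 1], [0, 1, 1, 0, 0, 0]]

    theorem hparW : parP 2 (pcL.map PC.u) D.T D.par D.gn (D.P 0).1 (D.P 0).2 (peL.getD 0 []) = pw0 ∧ parP 2 (pcL.map PC.u) D.T D.par D.gn (D.P 1).1 (D.P 1).2 (peL.getD 1 []) = pw1 ∧ parP 2 (pcL.map PC.u) D.T D.par D.gn (D.P 2).1 (D.P 2).2 (peL.getD 2 []) = pw2 ∧ parP 2 (pcL.map PC.u) D.T D.par D.gn (D.P 3).1 (D.P 3).2 (peL.getD 3 []) = pw3 ∧ parP 2 (pcL.map PC.u) D.T D.par D.gn (D.P 4).1 (D.P 4).2 (peL.getD 4 []) = pw4 ∧ parP 2 (pcL.map PC.u) D.T D.par D.gn (D.P 5).1 (D.P 5).2 (peL.getD 5 []) = pw5 ∧ parP 2 (pcL.map PC.u) D.T D.par D.gn (D.P 6).1 (D.P 6).2 (peL.getD 6 []) = pw6 := by decide +kernel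


/-- All words of the table, from a predicate on a list. -/
theorem words_of (φ : List ℕ → Prop) (h : ∀ w ∈ wordsL, φ w) :
    (∀ w ∈ relWords 2 pcL, φ w) ∧ (∀ ρ < D.r, φ (D.R ρ)) ∧
    (∀ u < D.m, (D.P u).1 < D.k →
      φ (parP 2 (pcL.map PC.u) D.T D.par D.gn (D.P u).1 (D.P u).2 (peL.getD u []))) := by
  refine ⟨?_, ?_, ?_⟩
  · intro w hw
    rw [hRelW] at hw
    simp only [List.mem_cons, List.not_mem_nil, or_false] at hw
    rcases hw with rfl | rfl | rfl | rfl | rfl | rfl | rfl | rfl | rfl | rfl | rfl | rfl | rfl | rfl | rfl | rfl | rfl | rfl | rfl | rfl | rfl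
    · exact h _ (by simp [wordsL])
    · exact h _ (by simp [wordsL])
    · exact h _ (by simp [wordsL])
    · exact h _ (by simp [wordsL])
    · exact h _ (by simp [wordsL])
    · exact h _ (by simp [wordsL])
    · exact h _ (by simp [wordsL])
    · exact h _ (by simp [wordsL])
    · exact h _ (by simp [wordsL])
    · exact h _ (by simp [wordsL])
    · exact h _ (by simp [wordsL])
    · exact h _ (by simp [wordsL])
    · exact h _ (by simp [wordsL])
    · exact h _ (by simp [wordsL])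
    · exact h _ (by simp [wordsL])
    · exact h _ (by simp [wordsL])
    · exact h _ (by simp [wordsL])
    · exact h _ (by simp [wordsL])
    · exact h _ (by simp [wordsL])
    · exact h _ (by simp [wordsL])
    · exact h _ (by simp [wordsL])
  · intro ρ hρ
    have hρ' : ρ < 9 := hρ
    interval_cases ρ
    · exact h wr0 (by simp [wordsL])
    · exact h wr1 (by simp [wordsL])
    · exact h wr2 (by simp [wordsL])
    · exact h wr3 (by simp [wordsL])
    · exact h wr4 (by simp [wordsL])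
    · exact h wr5 (by simp [wordsL])
    · exact h wr6 (by simp [wordsL])
    · exact h wr7 (by simp [wordsL])
    · exact h wr8 (by simp [wordsL])
  · intro u hu hl
    have hu' : u < 7 := hu
    interval_cases u
    · rw [hparW.1]
      exact h _ (by simp [wordsL])
    · rw [hparW.2.1]
      exact h _ (by simp [wordsL])
    · rw [hparW.2.2.1]
      exact h _ (by simp [wordsL])
    · rw [hparW.2.2.2.1]
      exact h _ (by simp [wordsL])
    · rw [hparW.2.2.2.2.1]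
      exact h _ (by simp [wordsL])
    · rw [hparW.2.2.2.2.2.1]
      exact h _ (by simp [wordsL])
    · rw [hparW.2.2.2.2.2.2]
      exact h _ (by simp [wordsL])

theorem hPn : ∀ u < D.m, (D.P u).1 < D.k → (D.P u).2 < D.n := by
  intro u hu h
  rcases hPk u hu with h1 | h1
  · exact h1.2
  · omega


end Cfsg.Agent.Lib.KnownSimple.U33ELab
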